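import Mathlib
import Cfsg.Prelude.Def_Sporadic_a

/-! helper92: vocabulary for row S1609 (subgroups of index 253 of `M23`). -/

set_option autoImplicit false

namespace Cfsg.Agent.Lib.Helper92.M23

/-- a group of order 40320 acting on 23 points like a subgroup of `M23` -/
structure Hyp23 (G X : Type*) [Group G] [MulAction G X] : Prop where
  cardG : Nat.card G = 40320
  cardX : Nat.card X = 23
  h7 : ∀ g : G, orderOf g = 7 → Nat.card {x : X // g • x = x} = 2
  h5 : ∀ g : G, orderOf g = 5 → Nat.card {x : X // g • x = x} = 3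
  hfix : ∀ g : G, g ≠ 1 → Nat.card {x : X // g • x = x} ≤ 7
  h4 : ∀ g : G, g ^ 4 = 1 → g ^ 2 ≠ 1 → Nat.card {x : X // g • x = x} ≤ 3
  h2 : ∀ a b : X, a ≠ b →
    Nat.card ↥(MulAction.stabilizer G a ⊓ MulAction.stabilizer G b) ∣ 20160

/-- the length of the orbit of `a` -/
noncomputable def nn (G : Type*) {X : Type*} [Group G] [MulAction G X] (a : X) : ℕ :=
  Nat.card ↥(MulAction.orbit G a)

/-- the 23 points different from `x` -/
abbrev Pts (x : Cfsg.GolayPt) : Type := {y : Cfsg.GolayPt // y ≠ x}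

/-- the permutation underlying an element of a subgroup of the point stabiliser -/
def toPerm {x : Cfsg.GolayPt} {H : Subgroup ↥(MulAction.stabilizer Cfsg.M24 x)} (h : H) :
    Equiv.Perm Cfsg.GolayPt := ((h : ↥(MulAction.stabilizer Cfsg.M24 x)) : ↥Cfsg.M24)

theorem toPerm_fix {x : Cfsg.GolayPt} {H : Subgroup ↥(MulAction.stabilizer Cfsg.M24 x)} (h : H) :
    toPerm h x = x := h.1.2

theorem toPerm_mem {x : Cfsg.GolayPt} {H : Subgroup ↥(MulAction.stabilizer Cfsg.M24 x)} (h : H) :
    toPerm h ∈ Cfsg.M24 := h.1.1.2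

theorem toPerm_mul {x : Cfsg.GolayPt} {H : Subgroup ↥(MulAction.stabilizer Cfsg.M24 x)}
    (h k : H) : toPerm (h * k) = toPerm h * toPerm k := rfl

theorem toPerm_one {x : Cfsg.GolayPt} {H : Subgroup ↥(MulAction.stabilizer Cfsg.M24 x)} :
    toPerm (1 : H) = 1 := rfl

theorem toPerm_injective {x : Cfsg.GolayPt} {H : Subgroup ↥(MulAction.stabilizer Cfsg.M24 x)} :
    Function.Injective (toPerm : H → Equiv.Perm Cfsg.GolayPt) := fun _ _ e =>
  Subtype.ext (Subtype.ext (Subtype.ext e))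

/-- the action on the 23 points -/
instance actH (x : Cfsg.GolayPt) (H : Subgroup ↥(MulAction.stabilizer Cfsg.M24 x)) :
    MulAction H (Pts x) where
  smul h y := ⟨toPerm h y.1, fun e => y.2 ((toPerm h).injective (e.trans (toPerm_fix h).symm))⟩
  one_smul _ := rfl
  mul_smul _ _ _ := rfl

theorem smul_val {x : Cfsg.GolayPt} {H : Subgroup ↥(MulAction.stabilizer Cfsg.M24 x)} (h : H)
    (y : Pts x) : (h • y).1 = toPerm h y.1 := rfl

end Cfsg.Agent.Lib.Helper92.M23
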