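import Mathlib
import Cfsg.Agent.Lib.Helper7.M24Fix
import Cfsg.Agent.Lib.Helper92.M23.Defs

/-! helper92 farm M23 (S1609), piece CARD (proved by helper22). -/

set_option autoImplicit false

namespace Cfsg.Agent.Lib.Helper92.M23

open Cfsg Cfsg.Agent.Lib.Helper27 Cfsg.Agent.Lib.Helper7
open scoped Pointwise

/-- [CARD] -/
theorem card_stab (x : GolayPt) : Nat.card ↥(MulAction.stabilizer M24 x) = 10200960 := by
  obtain ⟨g, hg, g1⟩ := std1 x
  have sp : ∀ s : ↥(MulAction.stabilizer M24 x), (s.1 : Equiv.Perm GolayPt) x = x :=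
    fun s => MulAction.mem_stabilizer_iff.1 s.2
  have i1 : g⁻¹ (pt 23) = x := by rw [Equiv.Perm.inv_eq_iff_eq]; exact g1.symm
  have hmem : ∀ s : ↥(MulAction.stabilizer M24 x),
      g * (s.1 : Equiv.Perm GolayPt) * g⁻¹ ∈ fixer L1 := by
    intro s
    exact mem_fixer_of_pts (g := g * (s.1 : Equiv.Perm GolayPt) * g⁻¹)
      (M24.mul_mem (M24.mul_mem hg s.1.2) (M24.inv_mem hg)) [23] (by
        intro b hb
        simp only [List.mem_cons, List.not_mem_nil, or_false] at hb
        subst hb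
        exact ⟨by norm_num, by
            rw [Equiv.Perm.mul_apply, Equiv.Perm.mul_apply, i1, sp s, g1]⟩)
  let F : ↥(MulAction.stabilizer M24 x) →* Equiv.Perm GolayPt :=
    { toFun := fun s => g * (s.1 : Equiv.Perm GolayPt) * g⁻¹
      map_one' := by simp
      map_mul' := fun x y => by simp [mul_assoc] }
  have hF : Function.Injective F := by
    intro a b hab
    have h1 : g * (a.1 : Equiv.Perm GolayPt) * g⁻¹ = g * (b.1 : Equiv.Perm GolayPt) * g⁻¹ := hab
    have h2 : (a.1 : Equiv.Perm GolayPt) = b.1 := mul_left_cancel (mul_right_cancel h1)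
    exact Subtype.ext (Subtype.ext h2)
  have hrange : F.range = fixer L1 := by
    apply le_antisymm
    · rintro _ ⟨s, rfl⟩
      exact hmem s
    · intro k hk
      have k1 : k (pt 23) = pt 23 := fixer_fix hk (by norm_num) (by simp [L1])
      have hkM : g⁻¹ * k * g ∈ M24 :=
        M24.mul_mem (M24.mul_mem (M24.inv_mem hg) (fixer_le_M24 L1 hk)) hg
      have e1 : (g⁻¹ * k * g) x = x := by
        rw [Equiv.Perm.mul_apply, Equiv.Perm.mul_apply, g1, k1, i1]
      refine ⟨⟨⟨g⁻¹ * k * g, hkM⟩, MulAction.mem_stabilizer_iff.2 e1⟩, ?_⟩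
      show g * (g⁻¹ * k * g) * g⁻¹ = k
      group
  rw [← card_fixer_L1, ← hrange]
  exact Nat.card_congr (MonoidHom.ofInjective hF).toEquiv

end Cfsg.Agent.Lib.Helper92.M23
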