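import Mathlib
import Cfsg.Agent.Lib.Helper7.M24Fix
import Cfsg.Agent.Lib.Helper92.M23.Defs

set_option autoImplicit false

namespace Cfsg.Agent.Lib.Helper92.M23

open Cfsg Cfsg.Agent.Lib.Helper27 Cfsg.Agent.Lib.Helper7
open scoped Pointwise

/-- test: fourth power trivial implies square trivial -/
def F4_chk (w : List ℕ) : Bool := bor (Bool.not (powIsOne w 4)) (powIsOne w 2)

theorem F4_L5 {k : Equiv.Perm GolayPt} (hk : k ∈ fixer L5) (h4 : k ^ 4 = 1) : k ^ 2 = 1 := by
  obtain ⟨w, hw, hf⟩ := enum_L5.forall F4_chk (by decide +kernel) hk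
  unfold F4_chk at hf
  rw [bor_eq, Bool.or_eq_true] at hf
  rcases hf with hf | hf
  · rw [check_of_pow_eq_one hw h4] at hf
    simp at hf
  · exact pow_eq_one_of_check hw hf

/-- [F4] an element of order 4 of `M24` fixes at most 4 points -/
theorem fix_order4 {g : Equiv.Perm GolayPt} (hg : g ∈ M24) (h4 : g ^ 4 = 1) (h2 : g ^ 2 ≠ 1) :
    (fixedPts g).card ≤ 4 := by
  by_contra hcon
  have h5 : Fintype.card (Fin 5) ≤ Fintype.card {x // x ∈ fixedPts g} := by
    rw [Fintype.card_coe, Fintype.card_fin]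
    omega
  obtain ⟨e⟩ := Function.Embedding.nonempty_of_card_le h5
  obtain ⟨h, hh, hst⟩ := std5' (e.trans (Function.Embedding.subtype _))
  have hfix : ∀ i, g ((e.trans (Function.Embedding.subtype _)) i) =
      (e.trans (Function.Embedding.subtype _)) i := fun i => mem_fixedPts.1 (e i).2
  have hk : ∀ i, (h * g * h⁻¹) (stdTuple i) = stdTuple i := by
    intro i
    have e1 : h⁻¹ (h ((e.trans (Function.Embedding.subtype _)) i)) =
        (e.trans (Function.Embedding.subtype _)) i := by simp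
    rw [← hst i, Equiv.Perm.mul_apply, Equiv.Perm.mul_apply, e1, hfix i]
  have hm : h * g * h⁻¹ ∈ M24 := M24.mul_mem (M24.mul_mem hh hg) (M24.inv_mem hh)
  have hmem : h * g * h⁻¹ ∈ fixer L5 := mem_fixer_of_pts hm [3, 2, 1, 0, 23] (by
    intro d hd
    simp only [List.mem_cons, List.not_mem_nil, or_false] at hd
    rcases hd with rfl | rfl | rfl | rfl | rfl
    · exact ⟨by norm_num, hk 4⟩
    · exact ⟨by norm_num, hk 3⟩
    · exact ⟨by norm_num, hk 2⟩
    · exact ⟨by norm_num, hk 1⟩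
    · exact ⟨by norm_num, hk 0⟩)
  have h4' : (h * g * h⁻¹) ^ 4 = 1 := by
    rw [conj_pow, h4, mul_one, mul_inv_cancel]
  have h2' := F4_L5 hmem h4'
  rw [conj_pow] at h2'
  apply h2
  have : g ^ 2 = h⁻¹ * (h * g ^ 2 * h⁻¹) * h := by group
  rw [this, h2', mul_one, inv_mul_cancel]

end Cfsg.Agent.Lib.Helper92.M23
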