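import Mathlib
import Cfsg.Agent.Lib.Helper7.M24Fix
import Cfsg.Agent.Lib.Helper92.M23.Defs

/-! helper92 farm M23 (S1609), piece FIXX (proved by helper22). -/

set_option autoImplicit false

namespace Cfsg.Agent.Lib.Helper92.M23

open Cfsg Cfsg.Agent.Lib.Helper27 Cfsg.Agent.Lib.Helper7
open scoped Pointwise

variable {x : GolayPt} (H : Subgroup ↥(MulAction.stabilizer M24 x))

/-- [FIXX] -/
theorem card_fix_pts (h : H) :
    Nat.card {y : Pts x // h • y = y} + 1 = (fixedPts (toPerm h)).card := by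
  have hx : x ∈ fixedPts (toPerm h) := mem_fixedPts.2 (toPerm_fix h)
  let e : {y : Pts x // h • y = y} ≃ {z : GolayPt // z ∈ (fixedPts (toPerm h)).erase x} :=
    { toFun := fun y => ⟨y.1.1, Finset.mem_erase.2 ⟨y.1.2, mem_fixedPts.2 (congrArg Subtype.val y.2)⟩⟩
      invFun := fun z => ⟨⟨z.1, (Finset.mem_erase.1 z.2).1⟩,
        Subtype.ext (mem_fixedPts.1 (Finset.mem_erase.1 z.2).2)⟩
      left_inv := fun _ => rfl
      right_inv := fun _ => rfl }
  rw [Nat.card_congr e, Nat.card_eq_fintype_card, Fintype.card_coe, Finset.card_erase_of_mem hx]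
  have : 0 < (fixedPts (toPerm h)).card := Finset.card_pos.2 ⟨x, hx⟩
  omega

end Cfsg.Agent.Lib.Helper92.M23
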