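import Mathlib
import Cfsg.Agent.Lib.Helper7.M24Fix
import Cfsg.Agent.Lib.Helper92.M23.Defs

set_option autoImplicit false

namespace Cfsg.Agent.Lib.Helper92.M23

open Cfsg Cfsg.Agent.Lib.Helper27 Cfsg.Agent.Lib.Helper7
open scoped Pointwise

/-- a subgroup of `M24` conjugate to a fixer has the same order -/
theorem PW3_card_eq (S : Subgroup ↥M24) (g : Equiv.Perm GolayPt) (hg : g ∈ M24) (L : List ℕ)
    (h : ∀ s : ↥M24, s ∈ S ↔ g * (s : Equiv.Perm GolayPt) * g⁻¹ ∈ fixer L) :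
    Nat.card S = Nat.card (fixer L) := by
  let φ : ↥S →* Equiv.Perm GolayPt :=
    (MulAut.conj g).toMonoidHom.comp (M24.subtype.comp S.subtype)
  have hφv : ∀ s : ↥S, φ s = g * ((s : ↥M24) : Equiv.Perm GolayPt) * g⁻¹ := fun s => rfl
  have hφ : Function.Injective φ := by
    intro a b hab
    rw [hφv, hφv] at hab
    have : ((a : ↥M24) : Equiv.Perm GolayPt) = ((b : ↥M24) : Equiv.Perm GolayPt) := by
      simpa using hab
    exact Subtype.ext (Subtype.ext this)
  have hrange : φ.range = fixer L := by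
    apply le_antisymm
    · rintro _ ⟨s, rfl⟩
      exact (h s.1).1 s.2
    · intro k hk
      have hk1 : k ∈ M24 := hk.1
      have hh : g⁻¹ * k * g ∈ M24 := M24.mul_mem (M24.mul_mem (M24.inv_mem hg) hk1) hg
      have e : g * (g⁻¹ * k * g) * g⁻¹ = k := by group
      have hs : (⟨g⁻¹ * k * g, hh⟩ : ↥M24) ∈ S := by
        rw [h]
        show g * (g⁻¹ * k * g) * g⁻¹ ∈ fixer L
        rw [e]
        exact hk
      exact ⟨⟨_, hs⟩, e⟩
  rw [← hrange]
  exact Nat.card_congr (MonoidHom.ofInjective hφ).toEquiv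

theorem PW3_fix_iff (g s : Equiv.Perm GolayPt) (y : GolayPt) (i : ℕ) (e : g y = pt i) :
    (g * s * g⁻¹) (pt i) = pt i ↔ s y = y := by
  rw [← e]
  simp [Equiv.Perm.mul_apply]

/-- [PW3] -/
theorem card_pw3 (x a b : GolayPt) (h1 : x ≠ a) (h2 : x ≠ b) (h3 : a ≠ b) :
    Nat.card ↥(MulAction.stabilizer M24 x ⊓ MulAction.stabilizer M24 a
      ⊓ MulAction.stabilizer M24 b) = 20160 := by
  obtain ⟨g, hg, e1, e2, e3⟩ := std3 h1 h2 h3
  rw [← card_fixer_L3]
  apply PW3_card_eq _ g hg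
  intro s
  have hm : g * (s : Equiv.Perm GolayPt) * g⁻¹ ∈ M24 :=
    M24.mul_mem (M24.mul_mem hg s.2) (M24.inv_mem hg)
  rw [Subgroup.mem_inf, Subgroup.mem_inf, MulAction.mem_stabilizer_iff,
    MulAction.mem_stabilizer_iff, MulAction.mem_stabilizer_iff]
  constructor
  · rintro ⟨⟨k1, k2⟩, k3⟩
    exact mem_fixer_of_pts hm [1, 0, 23] (by
      intro c hc
      simp only [List.mem_cons, List.not_mem_nil, or_false] at hc
      rcases hc with rfl | rfl | rfl
      · exact ⟨by norm_num, (PW3_fix_iff g s b 1 e3).2 k3⟩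
      · exact ⟨by norm_num, (PW3_fix_iff g s a 0 e2).2 k2⟩
      · exact ⟨by norm_num, (PW3_fix_iff g s x 23 e1).2 k1⟩)
  · intro hk
    exact ⟨⟨(PW3_fix_iff g s x 23 e1).1 (fixer_fix hk (by norm_num) (by simp [L3])),
      (PW3_fix_iff g s a 0 e2).1 (fixer_fix hk (by norm_num) (by simp [L3]))⟩,
      (PW3_fix_iff g s b 1 e3).1 (fixer_fix hk (by norm_num) (by simp [L3]))⟩

end Cfsg.Agent.Lib.Helper92.M23
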