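import Mathlib
import Cfsg.Agent.Lib.Helper7.M24Fix
import Cfsg.Agent.Lib.Helper92.M23.Defs
import Cfsg.Agent.Lib.Helper92.M23.PW3

set_option autoImplicit false

namespace Cfsg.Agent.Lib.Helper92.M23

open Cfsg Cfsg.Agent.Lib.Helper27 Cfsg.Agent.Lib.Helper7
open scoped Pointwise

variable {x : GolayPt} (H : Subgroup ↥(MulAction.stabilizer M24 x))

/-- [H2] -/
theorem card_two_dvd (a b : Pts x) (hab : a ≠ b) :
    Nat.card ↥(MulAction.stabilizer H a ⊓ MulAction.stabilizer H b) ∣ 20160 := by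
  rw [← card_pw3 x a.1 b.1 (Ne.symm a.2) (Ne.symm b.2) (fun h => hab (Subtype.ext h))]
  let φ : ↥(MulAction.stabilizer H a ⊓ MulAction.stabilizer H b) →* ↥M24 :=
    (MulAction.stabilizer M24 x).subtype.comp (H.subtype.comp (Subgroup.subtype _))
  have hφ : Function.Injective φ := by
    intro u v h
    exact Subtype.ext (Subtype.ext (Subtype.ext h))
  have hmem : ∀ k, φ k ∈ MulAction.stabilizer M24 x ⊓ MulAction.stabilizer M24 a.1
      ⊓ MulAction.stabilizer M24 b.1 := by
    intro k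
    refine ⟨⟨k.1.1.2, ?_⟩, ?_⟩
    · exact congrArg Subtype.val (MulAction.mem_stabilizer_iff.1 k.2.1)
    · exact congrArg Subtype.val (MulAction.mem_stabilizer_iff.1 k.2.2)
  exact Subgroup.card_dvd_of_injective (φ.codRestrict _ hmem)
    ((MonoidHom.injective_codRestrict _ _ _).2 hφ)

end Cfsg.Agent.Lib.Helper92.M23
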