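import Mathlib
import Cfsg.Agent.Lib.Helper7.M24Fix
import Cfsg.Agent.Lib.Helper92.M23.Defs

/-! helper92 farm M23 (S1609), piece ORD (proved by helper22). -/

set_option autoImplicit false

namespace Cfsg.Agent.Lib.Helper92.M23

open Cfsg Cfsg.Agent.Lib.Helper27 Cfsg.Agent.Lib.Helper7
open scoped Pointwise

variable {x : GolayPt} (H : Subgroup ↥(MulAction.stabilizer M24 x))

/-- `toPerm` as a monoid hom -/
def ORD_hom : H →* Equiv.Perm GolayPt :=
  M24.subtype.comp ((MulAction.stabilizer M24 x).subtype.comp H.subtype)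

theorem ORD_hom_apply (h : H) : ORD_hom H h = toPerm h := rfl

/-- [ORD] -/
theorem orderOf_toPerm (h : H) : orderOf (toPerm h) = orderOf h :=
  orderOf_injective (ORD_hom H) (fun _ _ e => toPerm_injective e) h

end Cfsg.Agent.Lib.Helper92.M23
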