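import Mathlib
import Cfsg.Agent.Lib.Helper7.M24Fix
import Cfsg.Agent.Lib.Helper92.M23.Defs
import Cfsg.Agent.Lib.Helper92.M23.F4
import Cfsg.Agent.Lib.Helper92.M23.CARD
import Cfsg.Agent.Lib.Helper92.M23.FIXX
import Cfsg.Agent.Lib.Helper92.M23.ORD
import Cfsg.Agent.Lib.Helper92.M23.H2

/-! helper92 farm M23 (S1609), piece APP (proved by helper22). -/

set_option autoImplicit false

namespace Cfsg.Agent.Lib.Helper92.M23

open Cfsg Cfsg.Agent.Lib.Helper27 Cfsg.Agent.Lib.Helper7
open scoped Pointwise

variable {x : GolayPt} (H : Subgroup ↥(MulAction.stabilizer M24 x))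

theorem APP_cardPts : ∀ x : GolayPt, Fintype.card (Pts x) = 23 := by decide +kernel

/-- [APP] -/
theorem hyp23 (hH : H.index = 253) : Hyp23 H (Pts x) := by
  refine ⟨?_, ?_, ?_, ?_, ?_, ?_, ?_⟩
  · have h1 := H.card_mul_index
    rw [hH, card_stab] at h1
    omega
  · rw [Nat.card_eq_fintype_card]
    exact APP_cardPts x
  · intro g hg
    have h1 := card_fix_pts H g
    rw [card_fixedPts_7 (toPerm_mem g) (by rw [orderOf_toPerm]; exact hg)] at h1
    omega
  · intro g hg
    have h1 := card_fix_pts H g
    rw [card_fixedPts_5 (toPerm_mem g) (by rw [orderOf_toPerm]; exact hg)] at h1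
    omega
  · intro g hg
    have h1 := card_fix_pts H g
    have h2 := card_fixedPts_le (toPerm_mem g) (fun e => hg (toPerm_injective (e.trans toPerm_one.symm)))
    omega
  · intro g h4 h2
    have h1 := card_fix_pts H g
    have e4 : toPerm g ^ 4 = 1 := by
      rw [← ORD_hom_apply, ← map_pow, h4, map_one]
    have e2 : toPerm g ^ 2 ≠ 1 := by
      intro e
      apply h2
      apply toPerm_injective
      rw [toPerm_one, ← ORD_hom_apply, map_pow, ORD_hom_apply]
      exact e
    have h3 := fix_order4 (toPerm_mem g) e4 e2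
    omega
  · intro a b hab
    exact card_two_dvd H a b hab

end Cfsg.Agent.Lib.Helper92.M23
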