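import Mathlib
import Cfsg.Agent.Lib.Helper7.M24Fix
import Cfsg.Agent.Lib.Helper92.M23.Defs
import Cfsg.Agent.Lib.Helper92.M23.PW3

set_option autoImplicit false

namespace Cfsg.Agent.Lib.Helper92.M23

open Cfsg Cfsg.Agent.Lib.Helper27 Cfsg.Agent.Lib.Helper7
open scoped Pointwise

/-- [BD2] -/
theorem card_duad_lt (x : GolayPt) (s : Finset GolayPt) (hs : s.card = 2) (hx : x ∉ s) :
    Nat.card ↥((MulAction.stabilizer M24 s).subgroupOf (MulAction.stabilizer M24 x)) < 443520 := by
  obtain ⟨a, b, hab, rfl⟩ := Finset.card_eq_two.1 hs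
  have hxa : x ≠ a := fun h => hx (by simp [h])
  have hxb : x ≠ b := fun h => hx (by simp [h])
  set S := (MulAction.stabilizer M24 ({a, b} : Finset GolayPt)).subgroupOf
    (MulAction.stabilizer M24 x) with hS
  have hpres : ∀ (g : S) (y : GolayPt), y ∈ ({a, b} : Finset GolayPt) →
      g • y ∈ ({a, b} : Finset GolayPt) := by
    intro g y hy
    have h1 : ((g : ↥(MulAction.stabilizer M24 x)) : ↥M24) • ({a, b} : Finset GolayPt) = {a, b} :=
      MulAction.mem_stabilizer_iff.1 (Subgroup.mem_subgroupOf.1 g.2)
    have h2 : ((g : ↥(MulAction.stabilizer M24 x)) : ↥M24) • y ∈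
        ((g : ↥(MulAction.stabilizer M24 x)) : ↥M24) • ({a, b} : Finset GolayPt) :=
      Finset.smul_mem_smul_finset hy
    rw [h1] at h2
    exact h2
  have horb : Nat.card (MulAction.orbit S a) ≤ 2 := by
    have hsub : MulAction.orbit S a ⊆ (({a, b} : Finset GolayPt) : Set GolayPt) := by
      rintro _ ⟨g, rfl⟩
      exact hpres g a (by simp)
    have := Nat.card_mono (Finset.finite_toSet _) hsub
    rw [Nat.card_coe_set_eq, Nat.card_coe_set_eq, Set.ncard_coe_finset, hs] at this
    rw [Nat.card_coe_set_eq]
    exact this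
  have hstab : Nat.card (MulAction.stabilizer S a) ∣ 20160 := by
    rw [← card_pw3 x a b hxa hxb hab]
    let φ : ↥(MulAction.stabilizer S a) →* ↥M24 :=
      (MulAction.stabilizer M24 x).subtype.comp (S.subtype.comp (Subgroup.subtype _))
    have hφ : Function.Injective φ := by
      intro u v h
      exact Subtype.ext (Subtype.ext (Subtype.ext h))
    have hmem : ∀ k, φ k ∈ MulAction.stabilizer M24 x ⊓ MulAction.stabilizer M24 a
        ⊓ MulAction.stabilizer M24 b := by
      intro k
      have ha : (k : S) • a = a := MulAction.mem_stabilizer_iff.1 k.2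
      refine ⟨⟨k.1.1.2, ha⟩, ?_⟩
      have hb := hpres k.1 b (by simp)
      rw [Finset.mem_insert, Finset.mem_singleton] at hb
      rcases hb with hb | hb
      · exfalso
        apply hab
        have : (k : S) • b = (k : S) • a := hb.trans ha.symm
        exact (MulAction.injective (k : S) this).symm
      · exact hb
    exact Subgroup.card_dvd_of_injective (φ.codRestrict _ hmem)
      ((MonoidHom.injective_codRestrict _ _ _).2 hφ)
  have h1 : Nat.card (MulAction.orbit S a) * Nat.card (MulAction.stabilizer S a) = Nat.card S := by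
    rw [← Nat.card_prod]
    exact Nat.card_congr (MulAction.orbitProdStabilizerEquivGroup S a)
  have h2 := Nat.le_of_dvd (by norm_num) hstab
  have h3 : Nat.card (MulAction.orbit S a) * Nat.card (MulAction.stabilizer S a) ≤ 2 * 20160 :=
    Nat.mul_le_mul horb h2
  omega

end Cfsg.Agent.Lib.Helper92.M23
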