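import Mathlib
import Cfsg.Agent.Lib.Helper7.M24Fix
import Cfsg.Agent.Lib.Helper92.M23.Defs
import Cfsg.Agent.Lib.Helper92.M23.PW3

set_option autoImplicit false

namespace Cfsg.Agent.Lib.Helper92.M23

open Cfsg Cfsg.Agent.Lib.Helper27 Cfsg.Agent.Lib.Helper7
open scoped Pointwise

/-- [PW4] -/
theorem card_pw4 (x a b c : GolayPt) (h1 : x ≠ a) (h2 : x ≠ b) (h3 : x ≠ c) (h4 : a ≠ b)
    (h5 : a ≠ c) (h6 : b ≠ c) :
    Nat.card ↥(MulAction.stabilizer M24 x ⊓ MulAction.stabilizer M24 a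
      ⊓ MulAction.stabilizer M24 b ⊓ MulAction.stabilizer M24 c) = 960 := by
  obtain ⟨g, hg, e1, e2, e3, e4⟩ := std4 h1 h2 h3 h4 h5 h6
  rw [← card_fixer_L4]
  apply PW3_card_eq _ g hg
  intro s
  have hm : g * (s : Equiv.Perm GolayPt) * g⁻¹ ∈ M24 :=
    M24.mul_mem (M24.mul_mem hg s.2) (M24.inv_mem hg)
  rw [Subgroup.mem_inf, Subgroup.mem_inf, Subgroup.mem_inf, MulAction.mem_stabilizer_iff,
    MulAction.mem_stabilizer_iff, MulAction.mem_stabilizer_iff, MulAction.mem_stabilizer_iff]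
  constructor
  · rintro ⟨⟨⟨k1, k2⟩, k3⟩, k4⟩
    exact mem_fixer_of_pts hm [2, 1, 0, 23] (by
      intro d hd
      simp only [List.mem_cons, List.not_mem_nil, or_false] at hd
      rcases hd with rfl | rfl | rfl | rfl
      · exact ⟨by norm_num, (PW3_fix_iff g s c 2 e4).2 k4⟩
      · exact ⟨by norm_num, (PW3_fix_iff g s b 1 e3).2 k3⟩
      · exact ⟨by norm_num, (PW3_fix_iff g s a 0 e2).2 k2⟩
      · exact ⟨by norm_num, (PW3_fix_iff g s x 23 e1).2 k1⟩)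
  · intro hk
    exact ⟨⟨⟨(PW3_fix_iff g s x 23 e1).1 (fixer_fix hk (by norm_num) (by simp [L4])),
      (PW3_fix_iff g s a 0 e2).1 (fixer_fix hk (by norm_num) (by simp [L4]))⟩,
      (PW3_fix_iff g s b 1 e3).1 (fixer_fix hk (by norm_num) (by simp [L4]))⟩,
      (PW3_fix_iff g s c 2 e4).1 (fixer_fix hk (by norm_num) (by simp [L4]))⟩

end Cfsg.Agent.Lib.Helper92.M23
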