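import Mathlib
import Cfsg.Agent.Lib.Helper7.M24Fix
import Cfsg.Agent.Lib.Helper92.M23.Defs
import Cfsg.Agent.Lib.Helper92.M23.PW4

set_option autoImplicit false

namespace Cfsg.Agent.Lib.Helper92.M23

open Cfsg Cfsg.Agent.Lib.Helper27 Cfsg.Agent.Lib.Helper7
open scoped Pointwise

/-- [BD8] -/
theorem card_octad_lt (x : GolayPt) (o : Finset GolayPt) (ho : o ∈ octads) (hx : x ∈ o) :
    Nat.card ↥((MulAction.stabilizer M24 o).subgroupOf (MulAction.stabilizer M24 x)) < 443520 := by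
  classical
  set S := (MulAction.stabilizer M24 o).subgroupOf (MulAction.stabilizer M24 x) with hS
  set E := o.erase x with hE
  have hc : E.card = 7 := by rw [hE, Finset.card_erase_of_mem hx, ho.2]
  obtain ⟨a, b, c, hab, hac, hbc, hsub⟩ :
      ∃ a b c : GolayPt, a ≠ b ∧ a ≠ c ∧ b ≠ c ∧ ({a, b, c} : Finset GolayPt) ⊆ E := by
    have h3 : 3 ≤ E.card := by omega
    obtain ⟨t, ht, htc⟩ := Finset.exists_subset_card_eq h3
    obtain ⟨a, b, c, hab, hac, hbc, rfl⟩ := Finset.card_eq_three.mp htc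
    exact ⟨a, b, c, hab, hac, hbc, ht⟩
  have ha : a ∈ E := hsub (by simp)
  have hb : b ∈ E := hsub (by simp)
  have hc' : c ∈ E := hsub (by simp)
  have hxa : x ≠ a := fun e => (Finset.mem_erase.mp ha).1 e.symm
  have hxb : x ≠ b := fun e => (Finset.mem_erase.mp hb).1 e.symm
  have hxc : x ≠ c := fun e => (Finset.mem_erase.mp hc').1 e.symm
  let val : S → Equiv.Perm GolayPt := fun σ => ((σ.1.1 : M24) : Equiv.Perm GolayPt)
  have hvx : ∀ σ : S, val σ x = x := fun σ => σ.1.2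
  have hvo : ∀ σ : S, ∀ y ∈ o, val σ y ∈ o := by
    intro σ y hy
    have h1 : (σ.1.1 : M24) • o = o := Subgroup.mem_subgroupOf.mp σ.2
    have h2 : (σ.1.1 : M24) • y ∈ (σ.1.1 : M24) • o := Finset.smul_mem_smul_finset hy
    rw [h1] at h2
    exact h2
  have hvE : ∀ σ : S, ∀ y ∈ E, val σ y ∈ E := by
    intro σ y hy
    rw [hE, Finset.mem_erase] at hy ⊢
    exact ⟨fun e => hy.1 ((val σ).injective (e.trans (hvx σ).symm)), hvo σ y hy.2⟩
  have hP := card_pw4 x a b c hxa hxb hxc hab hac hbc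
  let p : GolayPt × GolayPt × GolayPt := (a, b, c)
  have h1 : (MulAction.orbit S p).ncard ≤ 343 := by
    have hsub : MulAction.orbit S p ⊆ ↑(E ×ˢ E ×ˢ E) := by
      rintro _ ⟨σ, rfl⟩
      simp only [Finset.coe_product, Set.mem_prod, Finset.mem_coe]
      exact ⟨hvE σ a ha, hvE σ b hb, hvE σ c hc'⟩
    calc _ ≤ (↑(E ×ˢ E ×ˢ E) : Set _).ncard := Set.ncard_le_ncard hsub (Finset.finite_toSet _)
      _ = 343 := by rw [Set.ncard_coe_finset]; simp [Finset.card_product, hc]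
  have h2 : Nat.card (MulAction.stabilizer S p) ≤ 960 := by
    rw [← hP]
    refine Nat.card_le_card_of_injective (fun σ => ⟨σ.1.1.1, ?_⟩) ?_
    · have h := σ.2
      have h' : (val σ.1 a, val σ.1 b, val σ.1 c) = (a, b, c) := h
      simp only [Prod.mk.injEq] at h'
      refine ⟨⟨⟨σ.1.1.2, ?_⟩, ?_⟩, ?_⟩
      · exact h'.1
      · exact h'.2.1
      · exact h'.2.2
    · intro σ τ e
      have e' : σ.1.1.1 = τ.1.1.1 := Subtype.mk.inj e
      exact Subtype.ext (Subtype.ext (Subtype.ext e'))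
  have h3 : Nat.card S = (MulAction.orbit S p).ncard * Nat.card (MulAction.stabilizer S p) := by
    rw [← MulAction.index_stabilizer, Subgroup.index_mul_card]
  rw [h3]
  calc _ ≤ 343 * 960 := Nat.mul_le_mul h1 h2
    _ < 443520 := by norm_num

end Cfsg.Agent.Lib.Helper92.M23
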