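import Mathlib
import Cfsg.Agent.Lib.Helper7.M24Fix
import Cfsg.Agent.Lib.Helper92.M23.Defs
import Cfsg.Agent.Lib.Helper92.M23.CARD

/-! helper92 farm M23 (S1609), piece IDX (proved by helper22). -/

set_option autoImplicit false

namespace Cfsg.Agent.Lib.Helper92.M23

open Cfsg Cfsg.Agent.Lib.Helper27 Cfsg.Agent.Lib.Helper7
open scoped Pointwise

variable {x : GolayPt} (H : Subgroup ↥(MulAction.stabilizer M24 x))

theorem IDX_card (hH : H.index = 253) : Nat.card H = 40320 := by
  have h1 := H.card_mul_index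
  rw [hH, card_stab] at h1
  omega

/-- [IDX] -/
theorem eq_of_le (S : Subgroup ↥(MulAction.stabilizer M24 x)) (hH : H.index = 253) (hle : H ≤ S)
    (hS : Nat.card S < 443520) : H = S := by
  have cH := IDX_card H hH
  obtain ⟨m, hm⟩ := Subgroup.card_dvd_of_le hle
  have hd : Nat.card S ∣ 10200960 := by
    rw [← card_stab x]
    exact Subgroup.card_subgroup_dvd_card S
  rw [cH] at hm
  rw [hm] at hd hS
  have hm1 : m = 1 := by
    have hlt : m < 11 := by omega
    interval_cases m <;> omega
  apply Subgroup.eq_of_le_of_card_ge hle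
  rw [hm, cH, hm1]

end Cfsg.Agent.Lib.Helper92.M23
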