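import Mathlib
import Cfsg.Agent.Lib.Helper92.M23.Defs
import Cfsg.Agent.Lib.Helper92.M23.IDX
import Cfsg.Agent.Lib.Helper92.M23.BD2

set_option autoImplicit false

namespace Cfsg.Agent.Lib.Helper92.M23

open Cfsg
open scoped Pointwise

variable {x : GolayPt} (H : Subgroup ↥(MulAction.stabilizer M24 x))

/-- [DUAD] -/
theorem duad_case (hH : H.index = 253) (a b : Pts x) (hab : a ≠ b)
    (h : ∀ g : H, (g • a = a ∧ g • b = b) ∨ (g • a = b ∧ g • b = a)) :
    ∃ s : Finset GolayPt, s.card = 2 ∧ x ∉ s ∧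
      H = (MulAction.stabilizer M24 s).subgroupOf (MulAction.stabilizer M24 x) := by
  have hab' : a.1 ≠ b.1 := fun e => hab (Subtype.ext e)
  have hx : x ∉ ({a.1, b.1} : Finset GolayPt) := by
    simp only [Finset.mem_insert, Finset.mem_singleton, not_or]
    exact ⟨fun e => a.2 e.symm, fun e => b.2 e.symm⟩
  refine ⟨{a.1, b.1}, Finset.card_pair hab', hx, ?_⟩
  apply eq_of_le H _ hH ?_ (card_duad_lt x _ (Finset.card_pair hab') hx)
  intro g hg
  rw [Subgroup.mem_subgroupOf, MulAction.mem_stabilizer_iff]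
  have e1 : ∀ y : Pts x, ((⟨g, hg⟩ : H) • y).1 = (g : ↥M24) • y.1 := fun y => rfl
  rw [Finset.smul_finset_insert, Finset.smul_finset_singleton, ← e1 a, ← e1 b]
  rcases h ⟨g, hg⟩ with ⟨h1, h2⟩ | ⟨h1, h2⟩
  · rw [h1, h2]
  · rw [h1, h2, Finset.pair_comm]

end Cfsg.Agent.Lib.Helper92.M23
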