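import Mathlib
import Cfsg.Agent.Lib.Helper7.M24Fix
import Cfsg.Agent.Lib.Helper92.M23.Defs
import Cfsg.Agent.Lib.Helper92.M23.BD8
import Cfsg.Agent.Lib.Helper92.M23.IDX

set_option autoImplicit false

namespace Cfsg.Agent.Lib.Helper92.M23

open Cfsg Cfsg.Agent.Lib.Helper27 Cfsg.Agent.Lib.Helper7
open scoped Pointwise

variable {x : GolayPt} (H : Subgroup ↥(MulAction.stabilizer M24 x))

/-- [OCT] -/
theorem octad_case (hH : H.index = 253) (D : Set (Pts x)) (hD : Nat.card D = 7)
    (hinv : ∀ g : H, ∀ d ∈ D, g • d ∈ D) (hker : ∃ g : H, g ≠ 1 ∧ ∀ d ∈ D, g • d = d) :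
    ∃ o ∈ octads, x ∈ o ∧
      H = (MulAction.stabilizer M24 o).subgroupOf (MulAction.stabilizer M24 x) := by
  classical
  obtain ⟨g, hg1, hgD⟩ := hker
  set DF : Finset (Pts x) := (Set.toFinite D).toFinset with hDF
  have hDFc : DF.card = 7 := by
    rw [← hD, Nat.card_coe_set_eq, Set.ncard_eq_toFinset_card D (Set.toFinite D)]
  have hmem : ∀ y : Pts x, y ∈ DF ↔ y ∈ D := fun y => by rw [hDF, Set.Finite.mem_toFinset]
  set o : Finset GolayPt := insert x (DF.image Subtype.val) with ho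
  have hxn : x ∉ DF.image Subtype.val := by
    intro h
    obtain ⟨y, -, hy⟩ := Finset.mem_image.mp h
    exact y.2 hy
  have hoc : o.card = 8 := by
    rw [ho, Finset.card_insert_of_notMem hxn, Finset.card_image_of_injective _ Subtype.val_injective,
      hDFc]
  have hxo : x ∈ o := Finset.mem_insert_self _ _
  have hgne : toPerm g ≠ 1 := fun e => hg1 (toPerm_injective (e.trans toPerm_one.symm))
  have hoct : o ∈ octads := by
    refine octad_of_fixed (toPerm_mem g) hgne hoc ?_
    intro z hz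
    rcases Finset.mem_insert.mp hz with rfl | hz
    · exact toPerm_fix g
    · obtain ⟨y, hy, rfl⟩ := Finset.mem_image.mp hz
      exact congrArg Subtype.val (hgD y ((hmem y).mp hy))
  refine ⟨o, hoct, hxo, ?_⟩
  refine eq_of_le H _ hH ?_ (card_octad_lt x o hoct hxo)
  intro h hh
  rw [Subgroup.mem_subgroupOf, MulAction.mem_stabilizer_iff]
  refine Finset.eq_of_subset_of_card_le ?_ (by rw [Finset.card_smul_finset])
  intro z hz
  obtain ⟨y, hy, rfl⟩ := Finset.mem_smul_finset.mp hz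
  rcases Finset.mem_insert.mp hy with rfl | hy
  · have : (h : ↥M24) • y = y := h.2
    rw [this]; exact hxo
  · obtain ⟨w, hw, rfl⟩ := Finset.mem_image.mp hy
    have h1 := hinv ⟨h, hh⟩ w ((hmem w).mp hw)
    refine Finset.mem_insert_of_mem (Finset.mem_image.mpr ⟨(⟨h, hh⟩ : H) • w, (hmem _).mpr h1, rfl⟩)

end Cfsg.Agent.Lib.Helper92.M23
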