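import Mathlib
import Cfsg.Agent.Lib.Helper92.M23.Defs

set_option autoImplicit false

namespace Cfsg.Agent.Lib.Helper92.M23

variable {G X : Type*} [Group G] [Finite G] [MulAction G X] [Finite X]

omit [Finite G] in
/-- [Y1] fixed points modulo `p` on an invariant set -/
theorem card_modEq (g : G) (p : ℕ) (hp : p.Prime) (hg : orderOf g = p) (S : Set X)
    (hS : ∀ s ∈ S, g • s ∈ S) :
    Nat.card S ≡ Nat.card {x : X // x ∈ S ∧ g • x = x} [MOD p] := by
  haveI : Fact p.Prime := ⟨hp⟩
  have hfin : IsOfFinOrder g := by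
    rw [← orderOf_pos_iff, hg]; exact hp.pos
  have hpow : ∀ (n : ℕ) (s : X), s ∈ S → g ^ n • s ∈ S := by
    intro n
    induction n with
    | zero => intro s hs; rwa [pow_zero, one_smul]
    | succ n ih => intro s hs; rw [pow_succ, mul_smul]; exact ih _ (hS s hs)
  have hZ : IsPGroup p (Subgroup.zpowers g) :=
    IsPGroup.of_card (n := 1) (by rw [Nat.card_zpowers, hg, pow_one])
  let T : SubMulAction (Subgroup.zpowers g) X :=
    { carrier := S
      smul_mem' := by
        rintro ⟨z, hz⟩ s hs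
        obtain ⟨n, rfl⟩ := (hfin.mem_powers_iff_mem_zpowers).2 hz
        exact hpow n s hs }
  have h1 := hZ.card_modEq_card_fixedPoints (α := T)
  have e1 : Nat.card S = Nat.card T :=
    Nat.card_congr ⟨fun s => ⟨s.1, s.2⟩, fun t => ⟨t.1, t.2⟩, fun _ => rfl, fun _ => rfl⟩
  have e2 : Nat.card (MulAction.fixedPoints (Subgroup.zpowers g) T) =
      Nat.card {x : X // x ∈ S ∧ g • x = x} := by
    refine Nat.card_congr ⟨fun t => ⟨t.1.1, t.1.2, ?_⟩, fun x => ⟨⟨x.1, x.2.1⟩, ?_⟩, fun _ => rfl,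
      fun _ => rfl⟩
    · have h2 := t.2 ⟨g, Subgroup.mem_zpowers g⟩
      exact congrArg Subtype.val h2
    · rintro ⟨z, hz⟩
      apply Subtype.ext
      show z • x.1 = x.1
      have h3 : g ∈ MulAction.stabilizer G x.1 := x.2.2
      have h4 : Subgroup.zpowers g ≤ MulAction.stabilizer G x.1 := by
        rw [Subgroup.zpowers_le]; exact h3
      exact h4 hz
  rw [e1, ← e2]
  exact h1

end Cfsg.Agent.Lib.Helper92.M23
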