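import Mathlib
import Cfsg.Agent.Lib.Helper92.M23.Defs
import Cfsg.Agent.Lib.Helper92.M23.Y1

set_option autoImplicit false

namespace Cfsg.Agent.Lib.Helper92.M23

variable {G X : Type*} [Group G] [Finite G] [MulAction G X] [Finite X]

theorem Y2_mul (a : X) : nn G a * Nat.card (MulAction.stabilizer G a) = Nat.card G := by
  classical
  haveI := Fintype.ofFinite G
  haveI := Fintype.ofFinite X
  haveI : Fintype (MulAction.orbit G a) := Fintype.ofFinite _
  haveI : Fintype (MulAction.stabilizer G a) := Fintype.ofFinite _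
  unfold nn
  rw [Nat.card_eq_fintype_card, Nat.card_eq_fintype_card, Nat.card_eq_fintype_card]
  exact MulAction.card_orbit_mul_card_stabilizer_eq_card_group G a

omit [Finite G] in
theorem Y2_le (a : X) : nn G a ≤ Nat.card X := Finite.card_subtype_le _

omit [Finite G] in
theorem Y2_fix_le (g : G) (S : Set X) :
    Nat.card {x : X // x ∈ S ∧ g • x = x} ≤ Nat.card {x : X // g • x = x} :=
  Nat.card_le_card_of_injective (fun x => ⟨x.1, x.2.2⟩) (fun x y hxy => Subtype.ext (by
    have := congrArg Subtype.val hxy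
    exact this))

omit [Finite G] [Finite X] in
theorem Y2_inv (g : G) (a : X) : ∀ s ∈ MulAction.orbit G a, g • s ∈ MulAction.orbit G a := by
  rintro s ⟨k, rfl⟩
  exact ⟨g * k, mul_smul g k a⟩

/-- [Y2] -/
theorem nn_cases (h : Hyp23 G X) (t : G) (ht : orderOf t = 7) (a : X) (ha : t • a = a) :
    nn G a = 1 ∨ nn G a = 2 ∨ nn G a = 8 ∨ nn G a = 15 ∨ nn G a = 16 := by
  haveI : Fact (Nat.Prime 5) := ⟨by norm_num⟩
  obtain ⟨u, hu⟩ : ∃ u : G, orderOf u = 5 :=
    exists_prime_orderOf_dvd_card' 5 (by rw [h.cardG]; norm_num)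
  have h7 := card_modEq t 7 (by norm_num) ht (MulAction.orbit G a) (Y2_inv t a)
  have h5 := card_modEq u 5 (by norm_num) hu (MulAction.orbit G a) (Y2_inv u a)
  have f7 := Y2_fix_le t (MulAction.orbit G a)
  have f5 := Y2_fix_le u (MulAction.orbit G a)
  rw [h.h7 t ht] at f7
  rw [h.h5 u hu] at f5
  have p7 : 0 < Nat.card {x : X // x ∈ MulAction.orbit G a ∧ t • x = x} := by
    haveI : Nonempty {x : X // x ∈ MulAction.orbit G a ∧ t • x = x} :=
      ⟨⟨a, MulAction.mem_orbit_self a, ha⟩⟩
    exact Nat.card_pos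
  have hd : nn G a ∣ 40320 := by
    rw [← h.cardG, ← Y2_mul a]; exact dvd_mul_right _ _
  have hle : nn G a ≤ 23 := by rw [← h.cardX]; exact Y2_le a
  have e : Nat.card (MulAction.orbit G a) = nn G a := rfl
  rw [e] at h7 h5
  unfold Nat.ModEq at h7 h5
  generalize Nat.card {x : X // x ∈ MulAction.orbit G a ∧ t • x = x} = c7 at *
  generalize Nat.card {x : X // x ∈ MulAction.orbit G a ∧ u • x = x} = c5 at *
  generalize nn G a = n at *
  have h7' : n % 7 = 1 ∨ n % 7 = 2 := by omega
  have h5' : n % 5 ≤ 3 := by omega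
  clear h7 h5
  interval_cases n <;> simp_all

end Cfsg.Agent.Lib.Helper92.M23
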