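import Mathlib
import Cfsg.Agent.Lib.Helper92.M23.Defs

set_option autoImplicit false

namespace Cfsg.Agent.Lib.Helper92.M23

variable {G X : Type*} [Group G] [Finite G] [MulAction G X] [Finite X]

/-- a `4`-cycle on `Fin 8` -/
def Y4_tau : Equiv.Perm (Fin 8) := Equiv.swap 0 1 * Equiv.swap 1 2 * Equiv.swap 2 3

theorem Y4_tau4 : Y4_tau ^ 4 = 1 := by decide
theorem Y4_tau2 : Y4_tau ^ 2 ≠ 1 := by decide
theorem Y4_fix : Nat.card {i : Fin 8 // Y4_tau i = i} = 4 := by
  rw [Nat.card_eq_fintype_card]; decide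

/-- [Y4] -/
theorem nn_ne_eight (h : Hyp23 G X) (a : X) : nn G a ≠ 8 := by
  intro h8
  classical
  have hc : Nat.card ↥(MulAction.orbit G a) = 8 := h8
  let φ : G →* Equiv.Perm ↥(MulAction.orbit G a) := MulAction.toPermHom G ↥(MulAction.orbit G a)
  have hφ : ∀ (g : G) (x : ↥(MulAction.orbit G a)), ((φ g x : ↥(MulAction.orbit G a)) : X) = g • (x : X) :=
    fun g x => rfl
  have hinj : Function.Injective φ := by
    rw [injective_iff_map_eq_one]
    intro g hg
    by_contra hne
    have h7 := h.hfix g hne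
    have hle : Nat.card ↥(MulAction.orbit G a) ≤ Nat.card {x : X // g • x = x} := by
      apply Nat.card_le_card_of_injective (fun x : ↥(MulAction.orbit G a) => (⟨x.1, by
        have := hφ g x
        rw [hg] at this
        exact this.symm⟩ : {x : X // g • x = x}))
      intro x y hxy
      exact Subtype.ext (congrArg (fun z : {x : X // g • x = x} => z.1) hxy)
    omega
  have hcard : Nat.card (Equiv.Perm ↥(MulAction.orbit G a)) = 40320 := by
    haveI := Fintype.ofFinite ↥(MulAction.orbit G a)
    rw [Nat.card_eq_fintype_card, Fintype.card_perm, ← Nat.card_eq_fintype_card, hc]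
    rfl
  have hsurj : Function.Surjective φ :=
    ((Nat.bijective_iff_injective_and_card φ).2 ⟨hinj, by rw [h.cardG, hcard]⟩).2
  let e : ↥(MulAction.orbit G a) ≃ Fin 8 := Finite.equivFinOfCardEq hc
  obtain ⟨w, hw⟩ := hsurj (e.symm.permCongrHom Y4_tau)
  have hw4 : w ^ 4 = 1 := by
    apply hinj
    rw [map_pow, hw, ← map_pow, Y4_tau4, map_one, map_one]
  have hw2 : w ^ 2 ≠ 1 := by
    intro h2
    have h3 : φ (w ^ 2) = 1 := by rw [h2, map_one]
    rw [map_pow, hw, ← map_pow] at h3
    exact Y4_tau2 ((MulEquiv.map_eq_one_iff _).1 h3)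
  have h3 := h.h4 w hw4 hw2
  have hle : Nat.card {i : Fin 8 // Y4_tau i = i} ≤ Nat.card {x : X // w • x = x} := by
    apply Nat.card_le_card_of_injective (fun i : {i : Fin 8 // Y4_tau i = i} =>
      (⟨(e.symm i.1).1, by
        have h5 := hφ w (e.symm i.1)
        rw [hw] at h5
        have h6 : (e.symm.permCongrHom Y4_tau) (e.symm i.1) = e.symm i.1 := by
          rw [Equiv.permCongrHom_coe, Equiv.permCongr_apply, Equiv.symm_symm, Equiv.apply_symm_apply,
            i.2]
        rw [h6] at h5
        exact h5.symm⟩ : {x : X // w • x = x}))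
    intro i j hij
    have h7 : (e.symm i.1).1 = (e.symm j.1).1 := congrArg (fun z : {x : X // w • x = x} => z.1) hij
    exact Subtype.ext (e.symm.injective (Subtype.ext h7))
  rw [Y4_fix] at hle
  omega

end Cfsg.Agent.Lib.Helper92.M23
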