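import Mathlib
import Cfsg.Agent.Lib.Helper92.M23.Defs
import Cfsg.Agent.Lib.Helper92.M23.Y1
import Cfsg.Agent.Lib.Helper92.M23.Y2
import Cfsg.Agent.Lib.Helper92.M23.Y4

set_option autoImplicit false

namespace Cfsg.Agent.Lib.Helper92.M23

variable {G X : Type*} [Group G] [Finite G] [MulAction G X] [Finite X]

/-- [Y3] -/
theorem nn_ne_one (h : Hyp23 G X) (a : X) : nn G a ≠ 1 := by
  intro h1
  haveI : Fact (Nat.Prime 7) := ⟨by norm_num⟩
  -- `G` fixes `a`
  have hstab : Nat.card (MulAction.stabilizer G a) = Nat.card G := by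
    have := Y2_mul (G := G) a
    rwa [h1, one_mul] at this
  have htop : MulAction.stabilizer G a = ⊤ := Subgroup.eq_top_of_card_eq _ hstab
  have hfixa : ∀ g : G, g • a = a := by
    intro g
    have : g ∈ MulAction.stabilizer G a := by rw [htop]; exact Subgroup.mem_top g
    exact this
  obtain ⟨t, ht⟩ : ∃ t : G, orderOf t = 7 :=
    exists_prime_orderOf_dvd_card' 7 (by rw [h.cardG]; norm_num)
  obtain ⟨⟨x, hx⟩, ⟨y, hy⟩, hxy, huniv⟩ := Nat.card_eq_two_iff.mp (h.h7 t ht)
  have hxy' : x ≠ y := fun e => hxy (Subtype.ext e)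
  have hall : ∀ z : X, t • z = z → z = x ∨ z = y := by
    intro z hz
    have h2 : (⟨z, hz⟩ : {x : X // t • x = x}) ∈ ({⟨x, hx⟩, ⟨y, hy⟩} : Set {x : X // t • x = x}) := by
      rw [huniv]; exact Set.mem_univ _
    rcases h2 with h3 | h3
    · exact Or.inl (congrArg Subtype.val h3)
    · exact Or.inr (congrArg Subtype.val h3)
  -- the other fixed point
  obtain ⟨b, hba, hb, hall'⟩ : ∃ b : X, b ≠ a ∧ t • b = b ∧ ∀ z : X, t • z = z → z = a ∨ z = b := by
    rcases hall a (hfixa t) with e | e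
    · exact ⟨y, by rw [e]; exact hxy'.symm, hy, by rw [e]; exact hall⟩
    · exact ⟨x, by rw [e]; exact hxy', hx, fun z hz => (hall z hz).symm.imp (by rw [e]; exact id) id⟩
  -- `nn b` is even
  have hsb : Nat.card (MulAction.stabilizer G b) ∣ 20160 := by
    have h2 := h.h2 a b hba.symm
    rwa [htop, top_inf_eq] at h2
  have hmul := Y2_mul (G := G) b
  rw [h.cardG] at hmul
  have hle : nn G b ≤ 23 := by rw [← h.cardX]; exact Y2_le b
  -- `nn b ≡ 1 mod 7`
  have h7 := card_modEq t 7 (by norm_num) ht (MulAction.orbit G b) (Y2_inv t b)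
  have hc1 : Nat.card {x : X // x ∈ MulAction.orbit G b ∧ t • x = x} = 1 := by
    rw [Nat.card_eq_one_iff_unique]
    refine ⟨⟨?_⟩, ⟨⟨b, MulAction.mem_orbit_self b, hb⟩⟩⟩
    rintro ⟨z, hz1, hz2⟩ ⟨w, hw1, hw2⟩
    apply Subtype.ext
    show z = w
    have hna : ∀ v ∈ MulAction.orbit G b, v ≠ a := by
      rintro v ⟨g, rfl⟩ e
      apply hba
      have e' : g • b = a := e
      have h3 : g⁻¹ • (g • b) = g⁻¹ • a := by rw [e']
      rw [inv_smul_smul, hfixa] at h3
      exact h3
    have hzb : z = b := (hall' z hz2).resolve_left (hna z hz1)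
    have hwb : w = b := (hall' w hw2).resolve_left (hna w hw1)
    rw [hzb, hwb]
  rw [hc1] at h7
  have e : Nat.card (MulAction.orbit G b) = nn G b := rfl
  rw [e] at h7
  have h8 := nn_ne_eight h b
  unfold Nat.ModEq at h7
  obtain ⟨k, hk⟩ := hsb
  generalize Nat.card (MulAction.stabilizer G b) = s at *
  generalize nn G b = n at *
  have hs0 : 0 < s := by
    rcases Nat.eq_zero_or_pos s with h0 | h0
    · rw [h0] at hmul; omega
    · exact h0
  have hn2 : n = 2 * k := by
    have h4 : n * s = (2 * k) * s := by rw [hmul]; nlinarith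
    exact Nat.eq_of_mul_eq_mul_right hs0 h4
  have hd : n ∣ 40320 := ⟨s, hmul.symm⟩
  have hk' : k ≤ 11 := by omega
  subst hn2
  interval_cases k <;> simp_all

end Cfsg.Agent.Lib.Helper92.M23
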