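import Mathlib
import Cfsg.Agent.Lib.Helper92.M23.Defs

set_option autoImplicit false

namespace Cfsg.Agent.Lib.Helper92.M23

variable {G X : Type*} [Group G] [Finite G] [MulAction G X] [Finite X]

omit [Finite G] in
/-- [Y5a] -/
theorem of_two (a : X) (h2 : nn G a = 2) :
    ∃ a b : X, a ≠ b ∧ ∀ g : G, (g • a = a ∧ g • b = b) ∨ (g • a = b ∧ g • b = a) := by
  obtain ⟨x, y, hxy, huniv⟩ := Nat.card_eq_two_iff.mp h2
  refine ⟨x.1, y.1, fun e => hxy (Subtype.ext e), fun g => ?_⟩
  have hall : ∀ z : ↥(MulAction.orbit G a), z = x ∨ z = y := by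
    intro z
    have : z ∈ ({x, y} : Set _) := huniv ▸ Set.mem_univ _
    simpa using this
  have hne : g • x ≠ g • y := fun e => hxy (MulAction.injective g e)
  rcases hall (g • x) with hx | hx <;> rcases hall (g • y) with hy | hy
  · exact absurd (hx.trans hy.symm) hne
  · left; exact ⟨congrArg Subtype.val hx, congrArg Subtype.val hy⟩
  · right; exact ⟨congrArg Subtype.val hx, congrArg Subtype.val hy⟩
  · exact absurd (hx.trans hy.symm) hne

end Cfsg.Agent.Lib.Helper92.M23
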