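import Mathlib
import Cfsg.Agent.Lib.Helper92.M23.Defs

set_option autoImplicit false

namespace Cfsg.Agent.Lib.Helper92.M23

variable {G X : Type*} [Group G] [Finite G] [MulAction G X] [Finite X]

/-- [Y5b] -/
theorem of_sixteen (h : Hyp23 G X) (a : X) (h16 : nn G a = 16) :
    ∃ D : Set X, Nat.card D = 7 ∧ (∀ g : G, ∀ d ∈ D, g • d ∈ D) ∧
      ∃ g : G, g ≠ 1 ∧ ∀ d ∈ D, g • d = d := by
  have hinv : ∀ g : G, ∀ d ∈ (MulAction.orbit G a)ᶜ, g • d ∈ (MulAction.orbit G a)ᶜ := by
    intro g d hd hgd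
    apply hd
    obtain ⟨k, hk⟩ := hgd
    refine ⟨g⁻¹ * k, ?_⟩
    have hk' : k • a = g • d := hk
    show (g⁻¹ * k) • a = d
    rw [mul_smul, hk', inv_smul_smul]
  have hcard : Nat.card ↥((MulAction.orbit G a)ᶜ : Set X) = 7 := by
    have h1 := Set.ncard_add_ncard_compl (MulAction.orbit G a)
    rw [h.cardX] at h1
    have h2 : (MulAction.orbit G a).ncard = 16 := h16
    rw [h2] at h1
    show ((MulAction.orbit G a)ᶜ : Set X).ncard = 7
    omega
  refine ⟨(MulAction.orbit G a)ᶜ, hcard, hinv, ?_⟩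
  let D' : SubMulAction G X := ⟨(MulAction.orbit G a)ᶜ, fun g {d} hd => hinv g d hd⟩
  have hcard' : Nat.card D' = 7 := hcard
  by_contra hcon
  push Not at hcon
  have hinj : Function.Injective (MulAction.toPermHom G D') := by
    rw [injective_iff_map_eq_one]
    intro g hg
    by_contra hg1
    obtain ⟨d, hd, hne⟩ := hcon g hg1
    apply hne
    have h3 := congrArg (fun σ : Equiv.Perm D' => ((σ ⟨d, hd⟩ : D') : X)) hg
    simpa using h3
  have hle := Nat.card_le_card_of_injective _ hinj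
  rw [h.cardG, Nat.card_perm, hcard'] at hle
  norm_num [Nat.factorial] at hle

end Cfsg.Agent.Lib.Helper92.M23
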