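import Mathlib
import Cfsg.Agent.Lib.Helper92.M23.Defs
import Cfsg.Agent.Lib.Helper92.M23.Y1

set_option autoImplicit false

namespace Cfsg.Agent.Lib.Helper92.M23

variable {G X : Type*} [Group G] [Finite G] [MulAction G X] [Finite X]

/-- [Y5c] -/
theorem not_both_fifteen (h : Hyp23 G X) (t : G) (ht : orderOf t = 7) (a b : X) (hab : a ≠ b)
    (ha : t • a = a) (hb : t • b = b) (h1 : nn G a = 15) (h2 : nn G b = 15) : False := by
  by_cases hmem : b ∈ MulAction.orbit G a
  · -- both fixed points of `t` lie in the orbit of `a`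
    have hmod := card_modEq t 7 (by norm_num) ht (MulAction.orbit G a)
      (fun s hs => by
        obtain ⟨k, hk⟩ := hs
        exact ⟨t * k, by
          show (t * k) • a = t • s
          rw [mul_smul]; exact congrArg (t • ·) hk⟩)
    have hfix : Nat.card {x : X // x ∈ MulAction.orbit G a ∧ t • x = x} = 2 := by
      rw [← h.h7 t ht]
      -- the two subtypes coincide
      obtain ⟨⟨u, hu⟩, ⟨v, hv⟩, huv, huniv⟩ := Nat.card_eq_two_iff.mp (h.h7 t ht)
      have hall : ∀ x : X, t • x = x → x = a ∨ x = b := by
        intro x hx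
        have hx' : (⟨x, hx⟩ : {x : X // t • x = x}) ∈ ({⟨u, hu⟩, ⟨v, hv⟩} : Set _) := by
          rw [huniv]; trivial
        have ha' : (⟨a, ha⟩ : {x : X // t • x = x}) ∈ ({⟨u, hu⟩, ⟨v, hv⟩} : Set _) := by
          rw [huniv]; trivial
        have hb' : (⟨b, hb⟩ : {x : X // t • x = x}) ∈ ({⟨u, hu⟩, ⟨v, hv⟩} : Set _) := by
          rw [huniv]; trivial
        simp only [Set.mem_insert_iff, Set.mem_singleton_iff, Subtype.mk.injEq] at hx' ha' hb'
        rcases hx' with rfl | rfl <;> rcases ha' with rfl | rfl <;> rcases hb' with rfl | rfl <;>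
          simp_all
      apply Nat.card_congr
      refine ⟨fun x => ⟨x.1, x.2.2⟩, fun x => ⟨x.1, ?_, x.2⟩, fun x => rfl, fun x => rfl⟩
      rcases hall x.1 x.2 with e | e
      · rw [e]; exact MulAction.mem_orbit_self a
      · rw [e]; exact hmem
    rw [hfix] at hmod
    have h15 : Nat.card ↥(MulAction.orbit G a) = 15 := h1
    rw [h15] at hmod
    exact absurd hmod (by decide)
  · -- two disjoint orbits of length 15 in 23 points
    have hdisj : Disjoint (MulAction.orbit G a) (MulAction.orbit G b) := by
      rw [Set.disjoint_left]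
      intro x hxa hxb
      apply hmem
      have e1 := MulAction.orbit_eq_iff.mpr hxa
      have e2 := MulAction.orbit_eq_iff.mpr hxb
      rw [← e1, e2]
      exact MulAction.mem_orbit_self b
    have hun := Set.ncard_union_eq hdisj
    have ha15 : (MulAction.orbit G a).ncard = 15 := h1
    have hb15 : (MulAction.orbit G b).ncard = 15 := h2
    have hle : (MulAction.orbit G a ∪ MulAction.orbit G b).ncard ≤ Nat.card X := by
      rw [← Set.ncard_univ]
      exact Set.ncard_le_ncard (Set.subset_univ _)
    rw [hun, ha15, hb15, h.cardX] at hle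
    omega

end Cfsg.Agent.Lib.Helper92.M23
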