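import Mathlib
import Cfsg.Agent.Lib.Helper92.M23.Defs
import Cfsg.Agent.Lib.Helper92.M23.Y2
import Cfsg.Agent.Lib.Helper92.M23.Y3
import Cfsg.Agent.Lib.Helper92.M23.Y4
import Cfsg.Agent.Lib.Helper92.M23.Y5a
import Cfsg.Agent.Lib.Helper92.M23.Y5b
import Cfsg.Agent.Lib.Helper92.M23.Y5c

set_option autoImplicit false

namespace Cfsg.Agent.Lib.Helper92.M23

variable {G X : Type*} [Group G] [Finite G] [MulAction G X] [Finite X]

/-- [Y] assembly -/
theorem main23 (h : Hyp23 G X) :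
    (∃ a b : X, a ≠ b ∧ ∀ g : G, (g • a = a ∧ g • b = b) ∨ (g • a = b ∧ g • b = a)) ∨
    (∃ D : Set X, Nat.card D = 7 ∧ (∀ g : G, ∀ d ∈ D, g • d ∈ D) ∧
      ∃ g : G, g ≠ 1 ∧ ∀ d ∈ D, g • d = d) := by
  haveI : Fact (Nat.Prime 7) := ⟨by norm_num⟩
  obtain ⟨t, ht⟩ : ∃ t : G, orderOf t = 7 :=
    exists_prime_orderOf_dvd_card' 7 (by rw [h.cardG]; norm_num)
  obtain ⟨⟨a, ha⟩, ⟨b, hb⟩, hab, -⟩ := Nat.card_eq_two_iff.mp (h.h7 t ht)
  have hab' : a ≠ b := fun e => hab (Subtype.ext e)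
  have ca := nn_cases h t ht a ha
  have cb := nn_cases h t ht b hb
  have a1 := nn_ne_one h a
  have a8 := nn_ne_eight h a
  have b1 := nn_ne_one h b
  have b8 := nn_ne_eight h b
  rcases ca with c | c | c | c | c
  · exact absurd c a1
  · exact Or.inl (of_two a c)
  · exact absurd c a8
  · rcases cb with d | d | d | d | d
    · exact absurd d b1
    · exact Or.inl (of_two b d)
    · exact absurd d b8
    · exact (not_both_fifteen h t ht a b hab' ha hb c d).elim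
    · exact Or.inr (of_sixteen h b d)
  · exact Or.inr (of_sixteen h a c)

end Cfsg.Agent.Lib.Helper92.M23
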